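import Cfsg.Agent.Fisch.St.Aut

/-! Small models of subgroups, classes of subgroups of prime order, extensions by `S₃`. -/

set_option autoImplicit false

namespace CF.Fisch

open CF.Comp Subgroup Cfsg
open scoped Pointwise

section
variable {G Ω : Type*} [Group G] [MulAction G Ω] {n k o : ℕ} {E : Dom Ω n} {N N' : List Net} {f : ℕ → G}
  {ws : List (List ℕ)} {sb : List ℕ}

/-- a finite group of permutations with a base -/
structure Mini (N : List Net) (sb : List ℕ) (o : ℕ) (E : Dom Ω n) (f : ℕ → G) : Prop where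
  reps : Reps E N f
  card : Nat.card G = o
  based : Based E f sb
  top : closure (Set.range f) = ⊤
  one : ∀ i, N.length ≤ i → f i = 1

theorem reps_gen (h : Reps E N (evs f ws)) : Reps E N (gen f ws) := Bt.reps_sub h _

theorem mini_of [Finite G] (h : Reps E N (evs f ws)) (hn : n < 16777215) {c : List Lvl} (hc : cgOK N n c o = true)
    (hs : Nat.card (clo f ws) ≤ o) (hl : ws.length = N.length) : Mini N (lmap Lvl.b c) o E (gen f ws) :=
  have h1 := brec_and.1 hc
  ⟨reps_gen h, hs.antisymm ((ble_iff.1 h1.2).trans (((reps_gen h).chain_le (H := ⊤) hn h1.1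
    fun _ _ => trivial).trans_eq card_top)), Exact.based (H := ⊤) ⟨reps_gen h, hn, h1.1, inferInstance,
      fun _ _ => trivial, card_top.trans_le (hs.trans (ble_iff.1 h1.2))⟩ fun _ => trivial, gen_top ws,
    fun _ hi => Subtype.ext (evs_eq_one (hl ▸ hi))⟩

/-- net `i` acts as word `i` -/
noncomputable def netAt (N : List Net) (n k : ℕ) (N' : List Net) (ws : List (List ℕ)) (i : ℕ) : Bool :=
  netIs N n k (nth Net.nil N' i) (nth [] ws i)

theorem reps_words (h : Reps E N f) (hk : n ≤ 2 ^ k) {l : ℕ} (h1 : N'.length = l) (h2 : ws.length = l)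
    (hc : ∀ i < l, netAt N n k N' ws i = true) : Reps E N' (evs f ws) := by
  refine ⟨fun i => ?_, fun i j hj => ?_⟩
  · by_cases hi : i < l
    exacts [netIs_wf (hc i hi), by rw [nth_of_le _ (by omega)]; rfl]
  · by_cases hi : i < l
    · rw [pf, h.wf.netIs hk (hc i hi)]; exact (h.acts_ev _).2 j hj
    · rw [evs_eq_one (by omega), one_smul, pf_eq_one (by omega)]; rfl

theorem Mini.words (M : Mini N sb o E f) (h : Reps E N' (evs f ws)) {s : ℕ} (hs : Nat.card (clo f ws) = s)
    (hl : ws.length = N'.length) : Mini N' sb s E (gen f ws) :=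
  ⟨reps_gen h, hs, fun u w e => Subtype.ext (by
    rw [coe_ev_gen, coe_ev_gen]
    exact M.based _ _ fun b hb => by rw [← coe_ev_gen, ← coe_ev_gen]; exact e b hb), gen_top ws,
    fun _ hi => Subtype.ext (evs_eq_one (hl ▸ hi))⟩

theorem Mini.clo_top (M : Mini N sb o E f) : clo f (gensW N.length) = ⊤ := (clo_gensW M.one).trans M.top

theorem Mini.top_evs (M : Mini N sb o E f) (h : subW (gensW (llen N)) ws = true) :
    closure (Set.range (evs f ws)) = ⊤ :=
  eq_top_iff.2 (M.clo_top.ge.trans ((clo_le.2 fun w hw => ev_mem_clo f (subW_iff.1 h w (llen_eq N ▸ hw))).trans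
    (clo_eq_closure f ws).le))

theorem Mini.fix (M : Mini N sb o E f) {Bs : List ℕ} (h : lall (closedW N (gensW (llen N))) Bs = true) (g : G) :
    ∀ v ∈ Bs, g • E.set v = E.set v := fun v hv =>
  M.reps.closedW (lall_iff.1 h v hv) ((llen_eq N ▸ M.clo_top).ge (mem_top g))

theorem Mini.sm (M : Mini N sb o E f) {TT : BT (BT ℕ)} {w m : ℕ} (H : Tabs N n 10 w TT m) (hm : 2 * N.length ≤ m)
    (hb : lall (fun b => blt b n) sb = true) : IsSm f (eqT TT m 10 1023 w (2 ^ w - 1) sb) :=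
  H.isSm M.reps hm M.based (fun b h => blt_iff.1 (lall_iff.1 hb b h)) rfl rfl

theorem clo_more (ex : List (List ℕ)) : clo f (lapp ws (lmap (subst ws) ex)) = clo f ws := by
  rw [clo_lapp, sup_eq_left, clo_le, lmap_eq]
  intro w hw
  obtain ⟨u, -, rfl⟩ := List.mem_map.1 hw
  exact ev_subst_mem_clo f _ _

/-- two tuples of generators that act in the same way differ by an automorphism -/
theorem aut_of_reps [Finite G] {Ω' : Type*} [MulAction G Ω'] {E' : Dom Ω' n} (h : Reps E N f)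
    (ht : closure (Set.range f) = ⊤) (hs : Nat.card G ≤ Nat.card (PG N)) (h' : Reps E' N (evs f ws)) :
    ∃ ρ : MulAut G, ∀ w, ρ (ev f w) = ev f (subst ws w) := by
  obtain ⟨ψ, h1⟩ := Reps.toPG h ht
  obtain ⟨χ, h2⟩ := Reps.toPG (reps_gen h') (gen_top ws)
  let e := MulEquiv.ofBijective χ (h2.surj.bijective_of_nat_card_le ((card_le_card_group _).trans hs))
  have h3 : Function.Injective ((clo f ws).subtype.comp (e.symm.toMonoidHom.comp ψ)) :=
    Subtype.val_injective.comp (e.symm.injective.comp (h1.surj.bijective_of_nat_card_le hs).1)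
  refine ⟨MulEquiv.ofBijective _ h3.bijective_of_finite, fun w => ?_⟩
  rw [← coe_ev_gen]
  exact congrArg Subtype.val (e.symm_apply_eq.2 ((h1.ev w).trans (h2.ev w).symm))

/-- the number of points of `S` fixed by `X` -/
noncomputable def fxS (S : Set Ω) (X : Subgroup G) : ℕ := {y | y ∈ S ∧ ∀ x ∈ X, x • y = y}.ncard

theorem fxS_conj (S : Set Ω) (X : Subgroup G) (g : G) :
    fxS (g • S) (X.map (MulAut.conj g).toMonoidHom) = fxS S X := by
  rw [fxS, fxS, ← Set.ncard_smul_set g {y | y ∈ S ∧ ∀ x ∈ X, x • y = y}]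
  refine congrArg _ (Set.ext fun y => ⟨?_, ?_⟩)
  · rintro ⟨⟨y, hy, rfl⟩, h⟩
    exact ⟨y, ⟨hy, fun x hx => (conj_smul_smul_iff g x y).1 (h _ ⟨x, hx, rfl⟩)⟩, rfl⟩
  · rintro ⟨y, hy, rfl⟩
    exact ⟨⟨y, hy.1, rfl⟩, by rintro _ ⟨x, hx, rfl⟩; exact (conj_smul_smul_iff g x y).2 (hy.2 x hx)⟩

/-- the numbers of fixed points in the sets -/
noncomputable def cnts (N : List Net) (n k : ℕ) (Bs w : List ℕ) : List ℕ :=
  force (fixB N n k w) fun F => lmap (fun v => pop n (Nat.land (Nat.land F v) (full n))) Bs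

/-- the same for a subgroup -/
noncomputable def fxL (E : Dom Ω n) (Bs : List ℕ) (X : Subgroup G) : List ℕ := Bs.map fun v => fxS (E.set v) X

theorem fxL_ev (h : Reps E N f) (hn : n < 16777215) (hk : n ≤ 2 ^ k) (Bs w : List ℕ) :
    fxL E Bs (zpowers (ev f w)) = cnts N n k Bs w := by
  rw [cnts, force_eq, lmap_eq]
  refine List.map_congr_left fun v _ => ?_
  rw [fxS, ← E.ncard_set_of_lt hn (CF.Bt.land_full_lt _ _), CF.Bt.set_land_full, Dom.set_land, set_fixB h hk]
  refine congrArg _ (Set.ext fun y => ⟨fun hy => ⟨⟨?_, hy.2 _ (mem_zpowers _)⟩, hy.1⟩,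
    fun hy => ⟨hy.2, fun x hx => (zpowers_le (H := MulAction.stabilizer G y)).2 hy.1.2 hx⟩⟩)
  obtain ⟨i, hi, -, e⟩ := Dom.mem_set.1 hy.1
  exact Dom.mem_set_full.2 ⟨i, hi, e⟩

theorem fxL_conj {Bs : List ℕ} {g : G} (h : ∀ v ∈ Bs, g • E.set v = E.set v) (X : Subgroup G) :
    fxL E Bs (X.map (MulAut.conj g).toMonoidHom) = fxL E Bs X :=
  List.map_congr_left fun v hv => by rw [← fxS_conj (E.set v) X g, h v hv]

theorem fxL_perm {Bs rs : List ℕ} {m : ℕ} {hB : blkD n m Bs rs = true} (hl : Bs.length = m)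
    (h : Reps (Dom.blk E Bs hB) N' f) (ht : closure (Set.range f) = ⊤) (g : G) (X : Subgroup G) :
    (fxL E Bs (X.map (MulAut.conj g).toMonoidHom)).toFinset = (fxL E Bs X).toFinset := by
  have key : ∀ (g : G) (X : Subgroup G), (fxL E Bs X).toFinset ⊆ (fxL E Bs (X.map (MulAut.conj g).toMonoidHom)).toFinset :=
    fun g X c hc => by
      obtain ⟨v, hv, rfl⟩ := List.mem_map.1 (List.mem_toFinset.1 hc)
      obtain ⟨i, hi, rfl⟩ := exists_nth_of_mem 0 hv
      obtain ⟨σ, hσ⟩ := h.exists_acts (ht ▸ mem_top g)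
      refine List.mem_toFinset.2 (List.mem_map.2 ⟨_, nth_mem 0 (hl ▸ hσ.1.lt (hl ▸ hi)), ?_⟩)
      rw [← fxS_conj _ X g]
      exact congrArg (fxS · _) (hσ.2 i (hl ▸ hi)).symm
  exact subset_antisymm ((key g⁻¹ _).trans (by rw [map_conj_symm rfl])) (key g X)

end

section
variable {G K : Type*} [Group G] [Group K] {p k : ℕ} {L : Subgroup G}

/-- the subgroups of order `p` of `L` fall into `k` classes -/
def NCl (p k : ℕ) (L : Subgroup G) : Prop := ∃ Y : Fin k → Subgroup G, (∀ i, Y i ≤ L ∧ Nat.card (Y i) = p) ∧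
  (∀ i j, (∃ g : G, (Y i).map (MulAut.conj g).toMonoidHom = Y j) → i = j) ∧
  ∀ X : Subgroup G, X ≤ L → Nat.card X = p → ∃ i, ∃ g : G, X.map (MulAut.conj g).toMonoidHom = Y i

theorem map_conj_map (φ : G →* K) (X : Subgroup G) (g : G) : (X.map (MulAut.conj g).toMonoidHom).map φ =
    (X.map φ).map (MulAut.conj (φ g)).toMonoidHom := by
  rw [map_map, map_map]; congr 1; ext; simp

theorem NCl.map (h : NCl p k L) (e : G ≃* K) : NCl p k (L.map e.toMonoidHom) := by
  obtain ⟨Y, h1, h2, h3⟩ := h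
  refine ⟨fun i => (Y i).map e.toMonoidHom, fun i => ⟨map_mono (h1 i).1, (card_map_of_injective e.injective).trans
    (h1 i).2⟩, fun i j ⟨g, hg⟩ => ?_, fun X hX hc => ?_⟩
  · obtain ⟨g, rfl⟩ := e.surjective g
    exact h2 i j ⟨g, map_injective e.injective ((map_conj_map _ _ _).trans hg)⟩
  · obtain ⟨X, rfl⟩ : ∃ X' : Subgroup G, X'.map e.toMonoidHom = X := ⟨_, map_comap_eq_self_of_surjective e.surjective X⟩
    obtain ⟨i, g, hg⟩ := h3 X ((map_le_map_iff_of_injective e.injective).1 hX)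
      ((card_map_of_injective e.injective).symm.trans hc)
    exact ⟨i, e g, (map_conj_map _ _ _).symm.trans (congrArg _ hg)⟩

theorem NCl.top (h : NCl p k (⊤ : Subgroup G)) (e : G ≃* K) : ∃ Y : Fin k → Subgroup K, (∀ i, Nat.card (Y i) = p) ∧
    (∀ i j, (∃ g : K, (Y i).map (MulAut.conj g).toMonoidHom = Y j) → i = j) ∧
    ∀ X : Subgroup K, Nat.card X = p → ∃ i, ∃ g : K, X.map (MulAut.conj g).toMonoidHom = Y i := by
  obtain ⟨Y, h1, h2, h3⟩ := h.map e
  exact ⟨Y, fun i => (h1 i).2, h2, fun X => h3 X (le_top.trans (map_top_of_surjective _ e.surjective).ge)⟩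

theorem ncl_of [Finite G] (hp : p.Prime) {f : ℕ → G} {ws : List (List ℕ)} (hl : ws.length = k)
    (ho : ∀ w ∈ ws, ev f w ∈ L ∧ orderOf (ev f w) = p) (hc : ∀ y ∈ L, y ^ p = 1 → ∃ w ∈ [] :: ws, IsConj y (ev f w))
    {α : Type*} {I : Subgroup G → α} (hI : ∀ g X, I (X.map (MulAut.conj g).toMonoidHom) = I X)
    (hn : (ws.map fun w => I (zpowers (ev f w))).Nodup) : NCl p k L := by
  subst hl
  refine ⟨fun i => zpowers (ev f ws[i]), fun i => ⟨zpowers_le.2 (ho _ (by simp)).1, by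
    rw [Nat.card_zpowers, (ho _ (by simp)).2]⟩, fun i j ⟨g, e⟩ => Fin.ext ((hn.getElem_inj_iff (i := i) (j := j)
      (hi := by simp) (hj := by simp)).1 (by rw [List.getElem_map, List.getElem_map, ← hI g]; exact congrArg I e)), fun X hX h => ?_⟩
  obtain ⟨y, hy, rfl⟩ := CF.Bt.eq_zpowers_of_card hp h
  obtain ⟨w, hw, e⟩ := hc y (hX (mem_zpowers y)) (hy ▸ pow_orderOf_eq_one y)
  obtain ⟨c, e⟩ := isConj_iff.1 e
  rcases List.mem_cons.1 hw with rfl | hw
  · obtain rfl : y = 1 := by simpa [ev] using e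
    exact absurd (orderOf_one.symm.trans hy) hp.one_lt.ne
  · obtain ⟨i, hi, rfl⟩ := List.mem_iff_getElem.1 hw
    exact ⟨⟨i, hi⟩, c, by rw [map_conj_zpowers, e]; rfl⟩

theorem six_conj (hG : Nat.card G = 24) {P : Subgroup G} (hP : Nat.card P = 3) (hn : ¬ P.Normal) {A B : Subgroup G}
    (hA : A.index = 4) (hB : B.index = 4) : ∃ g, A.map (MulAut.conj g).toMonoidHom = B := by
  have := Nat.finite_of_card_ne_zero (hG.trans_ne (by decide))
  have : Fact (Nat.Prime 3) := ⟨Nat.prime_three⟩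
  have h0 : 3 ^ (Nat.card G).factorization 3 = 3 := by
    rw [hG, Nat.factorization_def _ Nat.prime_three, show 24 = 3 * 8 from rfl, padicValNat.mul (by decide) (by decide),
      padicValNat_self, padicValNat.eq_zero_of_not_dvd (by decide)]; rfl
  have key : ∀ A : Subgroup G, A.index = 4 → ∃ S : Sylow 3 G, normalizer (S : Set G) = A := fun A hA => by
    have h1 : Nat.card A = 6 := by have := A.card_mul_index; rw [hA, hG] at this; omega
    obtain ⟨T, hT⟩ := Sylow.exists_subgroup_card_pow_prime (G := A) 3 (n := 1) (by rw [h1]; decide)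
    have h2 := normal_of_index_eq_two (H := T) (by have := T.card_mul_index; rw [hT, h1] at this; omega)
    let S := Sylow.ofCard (p := 3) (T.map A.subtype) (by rw [card_map_of_injective A.subtype_injective, hT, h0]; rfl)
    have h3 : A ≤ normalizer (S : Set G) := fun a ha => mem_normalizer_of_fin (A := T.map A.subtype) (by
      rintro _ ⟨t, ht, rfl⟩; exact ⟨_, h2.conj_mem t ht ⟨a, ha⟩, rfl⟩)
    have h4 := index_dvd_of_le h3
    have h5 := card_sylow_modEq_one 3 G
    have h6 : Nat.card (Sylow 3 G) ≠ 1 := fun e => by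
      have := (Nat.card_eq_one_iff_unique.1 e).1
      exact hn (Sylow.ofCard (p := 3) P (hP.trans h0.symm)).normal_of_subsingleton
    rw [S.card_eq_index_normalizer] at h5 h6
    rw [hA] at h4
    refine ⟨S, (eq_of_le_of_card_ge h3 ?_).symm⟩
    have h7 := (normalizer (S : Set G)).card_mul_index
    have h8 := Nat.le_of_dvd (by decide) h4
    generalize (normalizer (S : Set G)).index = m at *
    interval_cases m <;> simp_all [Nat.ModEq] <;> omega
  obtain ⟨S, rfl⟩ := key A hA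
  obtain ⟨T, rfl⟩ := key B hB
  obtain ⟨g, rfl⟩ := MulAction.exists_smul_eq G S T
  exact ⟨g, map_equiv_normalizer_eq _ (MulAut.conj g)⟩

theorem fstar_emb [Finite G] (hz : center K = ⊥) (e : generalizedFittingSubgroup G ≃* K) :
    ∃ H : Subgroup (MulAut K), Inn K ≤ H ∧ Nonempty (G ≃* H) := by
  have h : Function.Injective ((MulAut.congr e).toMonoidHom.comp MulAut.conjNormal) :=
    (MulAut.congr e).injective.comp ((injective_iff_map_eq_one _).2 fun x hx => by
      have h1 : ∀ y ∈ generalizedFittingSubgroup G, y * x = x * y := fun y hy => (mul_inv_eq_iff_eq_mul.1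
        (show x * y * x⁻¹ = y from congrArg Subtype.val (DFunLike.congr_fun hx (⟨y, hy⟩ : generalizedFittingSubgroup G)))).symm
      exact congrArg Subtype.val ((center_eq_bot_of_equiv e hz).le (mem_center_iff.2 fun y => Subtype.ext (h1 y y.2) :
        (⟨x, CF.Sig.centralizer_fstar_le h1⟩ : generalizedFittingSubgroup G) ∈ center _)))
  refine ⟨_, ?_, ⟨MonoidHom.ofInjective h⟩⟩
  rintro _ ⟨k, rfl⟩
  exact ⟨e.symm k, by ext; simp [MulAut.congr, MulAut.conjNormal_val]⟩

theorem card_s3 {L : Subgroup G} [L.Normal] (e : L ≃* K) (q : Nonempty (G ⧸ L ≃* Equiv.Perm (Fin 3))) :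
    Nat.card G = 6 * Nat.card K := by
  rw [card_eq_card_quotient_mul_card_subgroup L, Nat.card_congr e.toEquiv, Nat.card_congr q.some.toEquiv,
    Nat.card_perm, Nat.card_fin]; rfl

theorem s3_ext [Finite K] (hz : center K = ⊥) (hA : Nat.card (MulAut K) = 24 * Nat.card K) {τ ρ : MulAut K} {y : K}
    (h1 : τ ^ 3 = 1) (h2 : τ y = y) (h3 : ¬ IsConj (ρ y) (τ (ρ y))) {G' : Type*} [Group G'] [Finite G] [Finite G']
    (e : generalizedFittingSubgroup G ≃* K) (e' : generalizedFittingSubgroup G' ≃* K)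
    (hG : Nat.card G = 6 * Nat.card K) (hG' : Nat.card G' = 6 * Nat.card K) : Nonempty (G ≃* G') := by
  obtain ⟨H, a1, ⟨a2⟩⟩ := fstar_emb hz e
  obtain ⟨H', b1, ⟨b2⟩⟩ := fstar_emb hz e'
  let π := QuotientGroup.mk' (Inn K)
  have hk : π.ker = Inn K := QuotientGroup.ker_mk' _
  have key : ∀ H : Subgroup (MulAut K), Inn K ≤ H → Nat.card H = 6 * Nat.card K → (H.map π).index = 4 := fun H a b => by
    rw [index_map_eq _ (QuotientGroup.mk'_surjective _) (hk.le.trans a)]
    exact index_eq_of b (by rw [hA]; ring) (by have := Nat.card_pos (α := K); omega)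
  have h4 : ∀ σ : MulAut K, π σ ∈ zpowers (π τ) → IsConj y (σ y) := fun σ ⟨m, hm⟩ => by
    obtain ⟨g, hg⟩ : (τ ^ m)⁻¹ * σ ∈ Inn K := QuotientGroup.eq.1 ((map_zpow π τ m).trans hm)
    have h5 : (τ ^ m) y = y := zpow_mem (show τ ∈ MulAction.stabilizer (MulAut K) y from h2) m
    rw [← mul_inv_cancel_left (τ ^ m) σ, ← hg]
    exact isConj_iff.2 ⟨(τ ^ m) g, by simp [h5]⟩
  obtain ⟨g, hg⟩ := six_conj (G := Out K) (P := zpowers (π τ))
    (Nat.eq_of_mul_eq_mul_right Nat.card_pos ((card_aut hz).symm.trans hA))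
    (by
      rw [Nat.card_zpowers]
      refine orderOf_eq_prime (by rw [← map_pow, h1, map_one]) fun e => h3 ?_
      obtain ⟨g, rfl⟩ : τ ∈ Inn K := hk.le e
      exact isConj_iff.2 ⟨g, rfl⟩)
    (fun hn => h3 (by simpa using (ρ.toMonoidHom.map_isConj (h4 (ρ⁻¹ * τ * ρ) (by
      simpa using hn.conj_mem _ (mem_zpowers _) (π ρ)⁻¹)))))
    (key H a1 ((Nat.card_congr a2.toEquiv).symm.trans hG)) (key H' b1 ((Nat.card_congr b2.toEquiv).symm.trans hG'))
  obtain ⟨g, rfl⟩ := QuotientGroup.mk'_surjective _ g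
  have h5 := map_injective_of_ker_le π (H := H.map (MulAut.conj g).toMonoidHom) (hk.le.trans fun x hx =>
    ⟨_, a1 (Normal.conj_mem inferInstance x hx g⁻¹), by simp [mul_assoc]⟩) (hk.le.trans b1) ((map_conj_map _ _ _).trans hg)
  exact ⟨a2.trans (((MulAut.conj g).subgroupMap H).trans ((MulEquiv.subgroupCongr h5).trans b2.symm))⟩

end

end CF.Fisch
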